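import Cfsg.Agent.Lib.H04.Tw.Main2
import Cfsg.Agent.Lib.H04.Chev.Weyl2
import Cfsg.Agent.Lib.H02.BN5

/-!
# The Weyl group of a twisted group
-/

set_option autoImplicit false
set_option linter.style.longLine false
set_option linter.unusedSimpArgs false
set_option linter.unusedSectionVars false
set_option linter.unusedVariables false

open Cfsg.Lie Cfsg.Agent.H04.Chev Cfsg.Agent.H02

namespace Cfsg.Agent.H04.Tw

theorem cox_equiv_of_setup {S W : Type*} [Group W] {x : S → W} {ℓ : W → ℕ} (H : Cox.Setup x ℓ) {n : ℕ} (M : CoxeterMatrix (Fin n)) (ι : Fin n ≃ S)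
    (hM : ∀ a b, orderOf (x (ι a) * x (ι b)) = M a b) : ∃ e : M.Group ≃* W, ∀ i, e (M.simple i) = x (ι i) := by
  let cs₀ : CoxeterSystem M M.Group := M.toCoxeterSystem
  have hlift : M.IsLiftable (fun i => x (ι i)) := fun a b => by
    rw [← hM a b]
    exact pow_orderOf_eq_one _
  let φ : M.Group →* W := cs₀.lift ⟨fun i => x (ι i), hlift⟩
  have hφ : ∀ s, φ (cs₀.simple s) = x (ι s) := cs₀.lift_apply_simple hlift
  have hwp : ∀ u : List (Fin n), φ (cs₀.wordProd u) = Cox.wv x (u.map ι) := by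
    intro u
    induction u with
    | nil => simp
    | cons a u ih => rw [cs₀.wordProd_cons, map_mul, hφ, ih, List.map_cons, Cox.wv_cons]
  have hsurj : Function.Surjective φ := by
    intro y
    obtain ⟨u, hu, -⟩ := H.ex y
    refine ⟨cs₀.wordProd (u.map ι.symm), ?_⟩
    rw [hwp, List.map_map]
    simpa using hu
  have hinj : Function.Injective φ := by
    rw [injective_iff_map_eq_one]
    intro g hg
    obtain ⟨u, rfl⟩ := cs₀.wordProd_surjective g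
    rw [hwp] at hg
    have h1 := Cox.wv_eq_one_of H (fun s => cs₀.simple (ι.symm s)) (fun s => cs₀.simple_mul_simple_self _)
      (fun a b => by
        have h2 := hM (ι.symm a) (ι.symm b)
        simp only [Equiv.apply_symm_apply] at h2
        rw [h2]
        exact cs₀.simple_mul_simple_pow _ _) hg
    have h2 : ∀ u : List (Fin n), Cox.wv (fun s => cs₀.simple (ι.symm s)) (u.map ι) = cs₀.wordProd u := by
      intro u
      induction u with
      | nil => simp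
      | cons a u ih => simp [Cox.wv_cons, CoxeterSystem.wordProd_cons, ih]
    rwa [h2] at h1
  exact ⟨MulEquiv.ofBijective φ ⟨hinj, hsurj⟩, hφ⟩

/-- abstract form of the quotient of `N` -/
theorem BN_weyl {G : Type*} [Group G] (P : Cfsg.BNPair G) {n : ℕ} (M : CoxeterMatrix (Fin n)) (ι : Fin n ≃ P.S) {X : Type*} [Group X] (ρ : P.N →* X)
    (hρ : ∀ x : P.N, ρ x = 1 ↔ (x : G) ∈ P.B)
    (hM : ∀ a b, orderOf (ρ ⟨ι a, P.subset (ι a).2⟩ * ρ ⟨ι b, P.subset (ι b).2⟩) = M a b) :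
    ∃ φ : P.N →* M.Group, Function.Surjective φ ∧ ∀ x, φ x = 1 ↔ (x : G) ∈ P.B := by
  have hT : (P.B ⊓ P.N).subgroupOf P.N = ρ.ker := by
    ext x
    rw [MonoidHom.mem_ker, hρ, Subgroup.mem_subgroupOf]
    exact ⟨fun h => h.1, fun h => ⟨h, x.2⟩⟩
  have hN : ((P.B ⊓ P.N).subgroupOf P.N).Normal := by
    rw [hT]
    infer_instance
  let Ψ : (P.N ⧸ (P.B ⊓ P.N).subgroupOf P.N) →* X := QuotientGroup.lift _ ρ (by
    intro x hx
    rw [hT] at hx
    exact hx)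
  have hΨ : Function.Injective Ψ := by
    rw [injective_iff_map_eq_one]
    intro y hy
    obtain ⟨x, rfl⟩ := QuotientGroup.mk_surjective y
    have h1 : ρ x = 1 := hy
    rw [QuotientGroup.eq_one_iff, hT]
    exact h1
  have hΨx : ∀ s : P.S, Ψ (BN.xS s) = ρ ⟨s, P.subset s.2⟩ := fun s => rfl
  obtain ⟨e, -⟩ := cox_equiv_of_setup (BN.setup (P := P)) M ι (fun a b => by
    rw [← orderOf_injective Ψ hΨ, map_mul, hΨx, hΨx]
    exact hM a b)
  refine ⟨e.symm.toMonoidHom.comp BN.piN, ?_, ?_⟩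
  · intro y
    obtain ⟨x, hx⟩ := BN.piN_surjective (P := P) (e y)
    refine ⟨x, ?_⟩
    change e.symm (BN.piN x) = y
    rw [hx]
    simp
  · intro x
    change e.symm (BN.piN x) = 1 ↔ _
    rw [map_eq_one_iff _ e.symm.injective]
    change (QuotientGroup.mk x : P.N ⧸ (P.B ⊓ P.N).subgroupOf P.N) = 1 ↔ _
    rw [QuotientGroup.eq_one_iff, Subgroup.mem_subgroupOf]
    exact ⟨fun h => h.1, fun h => ⟨h, x.2⟩⟩

variable {D : ChevalleyDatum} {T : Tabs} {U : Tabs3}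

section
variable (C : Checks D T) (C2 : Checks2 D T) (C3 : Checks3 D T U)
variable {K : Type*} [Field K] {G : GT} {d : ℕ} (h : TwT D T G d) (f : K ≃+* K)
variable {r' : ℕ} {Js : ℕ → List ℕ} {rho rhoI : ℕ → ℕ} (hJ : JT D T G r' Js rho rhoI)
variable {GS : Subgroup (GL D.Idx K)} (hS : GSH C h f r' Js rho GS)
variable {cl : ℕ → ℕ} {m : ℕ} {L : ℕ → List ℕ}

include C2 C3 in
/-- the action of `N` on the roots -/
theorem exists_rhoN : ∃ ψ : ↥(D.monomialSubgroup K) →* Equiv.Perm (Fin D.nroots),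
    (∀ (g : ↥(D.monomialSubgroup K)) (π π' : ℕ → ℕ) (d : ℕ → Kˣ), NAct C g.1 π π' d → ∀ s : Fin D.nroots, ((ψ g s : Fin D.nroots) : ℕ) = π s) ∧
    ∀ g, ψ g = 1 ↔ g.1 ∈ D.diagonalSubgroup K := by
  obtain ⟨ψ, hψ⟩ := exists_N_hom C C2 C3 K
  refine ⟨(WW C).subtype.comp ψ, fun g π π' e a s => hψ g π π' e a s, ?_⟩
  intro g
  constructor
  · intro h1
    obtain ⟨w, hw, π, π', e, hA, hπ⟩ := monomial_le_NW C C3 g.2
    apply mem_H_of_pos C C2 C3 g.2 hA
    intro r hr hr'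
    have h2 := hψ g π π' e hA ⟨r, hr'⟩
    have h3 : (ψ g).1 = 1 := h1
    rw [h3] at h2
    rw [← h2]
    exact hr
  · intro h1
    have hH : (g : GL D.Idx K) ∈ HT U D K := by rwa [← diagonal_eq C C3]
    obtain ⟨c, hc⟩ := mem_HT.mp hH
    have a₂ : NAct (F := K) C (hProd U D c) _ _ _ := NAct_torus (F := K) C C3 (capply D c)
    rw [← hc] at a₂
    ext s
    exact hψ g _ _ _ a₂ s

include C C2 C3 hJ hS in
/-- `N¹/H¹` is a Coxeter group -/
theorem weyl_T [Fintype K] (hQ : GS = Fx h f ⊓ D.group K) (hc : ClT D G cl m L) (hJ2 : JT2 D T G r' Js) (hr : r' ≤ m) (hLJ : ∀ j, j < r' → L j = (Js j).map D.simple)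
    {n : ℕ} (M : CoxeterMatrix (Fin n)) (τ : Fin n → ℕ) (hτ1 : ∀ a, τ a < r') (hτ2 : ∀ j, j < r' → ∃ a, τ a = j) (hτ3 : Function.Injective τ)
    (hord : ∀ a b, orderB D T (Js (τ a) ++ Js (τ b)) (M a b) = true) :
    ∃ φ : ↥(D.monomialSubgroup K ⊓ GS) →* M.Group, Function.Surjective φ ∧
      φ.ker = (D.diagonalSubgroup K ⊓ GS).subgroupOf (D.monomialSubgroup K ⊓ GS) := by
  obtain ⟨ψ, hψ1, hψ2⟩ := exists_rhoN (K := K) C C2 C3
  set P := bnT C C2 C3 h f hJ hJ2 hc hS hQ hr hLJ with hP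
  have hPN : P.N = (D.monomialSubgroup K ⊓ GS).subgroupOf GS := rfl
  have hPB : P.B = (D.borelSubgroup K ⊓ GS).subgroupOf GS := rfl
  have hPS : P.S = SJ C K r' Js GS := rfl
  have hNN : ∀ x : P.N, (x.1.1 : GL D.Idx K) ∈ D.monomialSubgroup K := fun x =>
    (Subgroup.mem_inf.mp (Subgroup.mem_subgroupOf.mp x.2)).1
  let ρ : P.N →* Equiv.Perm (Fin D.nroots) := MonoidHom.mk' (fun x => ψ ⟨x.1.1, hNN x⟩) (by
    intro a b
    rw [← map_mul]
    rfl)
  have hρ : ∀ x : P.N, ρ x = 1 ↔ (x : ↥GS) ∈ P.B := by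
    intro x
    change ψ ⟨x.1.1, hNN x⟩ = 1 ↔ _
    rw [hψ2, hPB, Subgroup.mem_subgroupOf]
    constructor
    · intro h1
      exact Subgroup.mem_inf.mpr ⟨H_le_B h1, x.1.2⟩
    · intro h1
      show x.1.1 ∈ _
      rw [← borel_inf_monomial C C2 C3]
      exact ⟨(Subgroup.mem_inf.mp h1).1, hNN x⟩
  have mN : ∀ k (hk : k < r'), nWordG C K (Js k) ∈ GS := fun k hk => nWordG_mem_GS C C2 C3 h f hJ hS hk
  let ι₀ : Fin n → P.S := fun a => ⟨⟨nWordG C K (Js (τ a)), mN _ (hτ1 a)⟩, ⟨τ a, hτ1 a, rfl⟩⟩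
  have hι₀ : Function.Bijective ι₀ := by
    constructor
    · intro a b e
      have e1 : nWordG C K (Js (τ a)) = nWordG C K (Js (τ b)) := congrArg (fun s : P.S => s.1.1) e
      apply hτ3
      exact nWord_inj C C2 C3 hJ hJ2 (hτ1 a) (hτ1 b) (by rw [e1, inv_mul_cancel]; exact one_mem _)
    · rintro ⟨⟨s, hs⟩, j, hj, e⟩
      obtain ⟨a, rfl⟩ := hτ2 j hj
      exact ⟨a, Subtype.ext (Subtype.ext e.symm)⟩
  let ι : Fin n ≃ P.S := Equiv.ofBijective ι₀ hι₀
  have hρι : ∀ a, ρ ⟨ι a, P.subset (ι a).2⟩ = wordP C (Js (τ a)) := by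
    intro a
    obtain ⟨π', e, ha⟩ := NAct_word (F := K) C (hJ.lt _ (hτ1 a))
    ext s
    rw [wordP_apply C (hJ.lt _ (hτ1 a))]
    exact hψ1 _ _ _ _ ha s
  obtain ⟨φ, hφ1, hφ2⟩ := BN_weyl P M ι ρ hρ (fun a b => by
    rw [hρι, hρι, ← wordP_append]
    refine orderOf_of_check C C2 C3 ?_ (hord a b)
    intro i hi
    rcases List.mem_append.mp hi with h1 | h1
    · exact hJ.lt _ (hτ1 a) i h1
    · exact hJ.lt _ (hτ1 b) i h1)
  let θ : ↥(D.monomialSubgroup K ⊓ GS) ≃* P.N := (Subgroup.subgroupOfEquivOfLe inf_le_right).symm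
  refine ⟨φ.comp θ.toMonoidHom, ?_, ?_⟩
  · intro y
    obtain ⟨x, hx⟩ := hφ1 y
    exact ⟨θ.symm x, by simp [hx]⟩
  · ext g
    rw [MonoidHom.mem_ker, Subgroup.mem_subgroupOf]
    change φ (θ g) = 1 ↔ _
    rw [hφ2, hPB, Subgroup.mem_subgroupOf]
    have e0 : ((θ g : P.N) : ↥GS).1 = g.1 := rfl
    rw [e0]
    constructor
    · intro h1
      refine Subgroup.mem_inf.mpr ⟨?_, (Subgroup.mem_inf.mp g.2).2⟩
      rw [← borel_inf_monomial C C2 C3]
      exact ⟨(Subgroup.mem_inf.mp h1).1, (Subgroup.mem_inf.mp g.2).1⟩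
    · intro h1
      exact Subgroup.mem_inf.mpr ⟨H_le_B (Subgroup.mem_inf.mp h1).1, (Subgroup.mem_inf.mp g.2).2⟩

end

end Cfsg.Agent.H04.Tw
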