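import Cfsg.Agent.Lib.H04.Tw.D4H
import Cfsg.Agent.Lib.H04.Tw.WeylT

/-!
# The Weyl group of `³D₄(q)`
-/

set_option autoImplicit false
set_option linter.style.longLine false
set_option linter.unusedSimpArgs false
set_option linter.unusedSectionVars false
set_option linter.unusedVariables false
set_option maxRecDepth 100000

open Cfsg.Lie Cfsg.Agent.H04.Chev
open Cfsg.Agent.H04.Chev.TD4

namespace Cfsg.Agent.H04.Tw.TD4

/-- the matching of the nodes of `G₂` -/
def tauW : Fin 2 → ℕ := ![0, 1]

theorem ordT : ∀ a b : Fin 2, orderB chevD4 T (Js (tauW a) ++ Js (tauW b)) (CoxeterMatrix.G₂ a b) = true := by decide +kernel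

variable {K : Type*} [Field K] [Fintype K] {q : ℕ}

theorem weyl (hq : IsPrimePow q) (hK : Fintype.card K = q ^ 3) :
    ∃ φ : ↥(chevD4.monomialSubgroup K ⊓ twistedD4 K q) →* (CoxeterMatrix.G₂).Group, Function.Surjective φ ∧
      φ.ker = (chevD4.diagonalSubgroup K ⊓ twistedD4 K q).subgroupOf (chevD4.monomialSubgroup K ⊓ twistedD4 K q) := by
  obtain ⟨f, hf⟩ := exists_frob hq (d := 2) hK
  have hff : ∀ t, f (f (f t)) = t := fun t => frob_order hK hf t
  exact weyl_T checks checks2 checks3 twT f jT (gsh hf hff) (GS_eq' hf hff) clT' jT2 (by decide) LJ CoxeterMatrix.G₂ tauW (by decide)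
    (by decide) (by decide) ordT

end Cfsg.Agent.H04.Tw.TD4
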