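import Cfsg.Agent.Lib.H04.Tw.E6H
import Cfsg.Agent.Lib.H04.Tw.Tab.E6_w

/-!
# The order of `²E₆(q)`
-/

set_option autoImplicit false
set_option linter.style.longLine false
set_option linter.unusedSimpArgs false
set_option linter.unusedSectionVars false
set_option linter.unusedVariables false
set_option maxRecDepth 100000

open Cfsg.Lie Cfsg.Agent.H04.Chev
open Cfsg.Agent.H04.Chev.TE6

namespace Cfsg.Agent.H04.Tw.TE6

variable {K : Type*} [Field K] [Fintype K] {q : ℕ}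

theorem PST_val (q : ℕ) : PST checks 4 Js q = ∑ k ∈ Finset.range 37, H.getD k 0 * q ^ k := by
  rw [PST_eq checks jT wE jT2.inv q, sum_hist (M := 37) (fun e he => Nat.le_of_ble_eq_true (allRange_spec hH2 e he)) q]
  apply Finset.sum_congr rfl
  intro k hk
  rw [Nat.eq_of_beq_eq_true (allRange_spec hH k (Finset.mem_range.mp hk))]

theorem card_G (hq : IsPrimePow q) (hK : Fintype.card K = q ^ 2) :
    Nat.gcd 3 (q + 1) * Nat.card ↥(twistedE6 K q) =
      q ^ 36 * (q ^ 2 - 1) * (q ^ 5 + 1) * (q ^ 6 - 1) * (q ^ 8 - 1) * (q ^ 9 + 1) * (q ^ 12 - 1) := by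
  have hq1 : 1 ≤ q := hq.one_lt.le
  obtain ⟨f, hf⟩ := exists_frob hq (d := 1) hK
  have hff : ∀ t, f (f t) = t := fun t => frob_order hK hf t
  have hQ := GS_eq' hf hff
  have hS := gsh hf hff
  have hUq := U_inf_eq checks checks2 checks3 twT f jT clT' hS (by decide) LJ upC
  have hB := card_B_GS checks checks2 checks3 twT f hQ hUq
  have hU := card_U_GS checks checks2 checks3 twT f jT clT' hS (by decide) LJ upC hq1 hK hf kinds
  have hFX : ∀ i, i < m → Nat.card (FX twT f checks cl i) = q ^ (L i).length := fun i hi =>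
    card_FX checks checks2 checks3 twT f clT' hK (card_fix_field hq1 hK hf) (frob_order hK hf) kinds hi
  have hG := card_GS checks checks2 checks3 twT f jT clT' hQ hq1 hFX kinds
  have hC := card_H hq hK
  rw [hG, hB, hU, PST_val]
  have hn : chevE6.nroots / 2 = 36 := rfl
  rw [hn]
  have e1 : Nat.gcd 3 (q + 1) * (q ^ 36 * Nat.card ↥(chevE6.diagonalSubgroup K ⊓ twistedE6 K q) * ∑ k ∈ Finset.range 37, H.getD k 0 * q ^ k)
      = q ^ 36 * (Nat.gcd 3 (q + 1) * Nat.card ↥(chevE6.diagonalSubgroup K ⊓ twistedE6 K q)) * ∑ k ∈ Finset.range 37, H.getD k 0 * q ^ k := by ring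
  rw [e1, hC]
  simp only [Finset.sum_range_succ, Finset.sum_range_zero]
  have hH : H = [1, 2, 4, 6, 9, 13, 17, 22, 26, 32, 37, 43, 47, 51, 55, 58, 61, 61, 62, 61, 61, 58, 55, 51, 47, 43, 37, 32, 26, 22, 17, 13, 9, 6, 4, 2, 1] := rfl
  rw [hH]
  simp only [List.getD_cons_zero, List.getD_cons_succ]
  have h1 : 1 ≤ q ^ 2 := Nat.one_le_pow _ _ hq1
  have h2 : 1 ≤ q ^ 6 := Nat.one_le_pow _ _ hq1
  have h3 : 1 ≤ q ^ 8 := Nat.one_le_pow _ _ hq1
  have h4 : 1 ≤ q ^ 12 := Nat.one_le_pow _ _ hq1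
  zify [h1, h2, h3, h4, hq1]
  ring

end Cfsg.Agent.H04.Tw.TE6
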