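import Cfsg.Agent.Lib.H04.Tw.E6H
import Cfsg.Agent.Lib.H04.Tw.WeylT

/-!
# The Weyl group of `²E₆(q)`
-/

set_option autoImplicit false
set_option linter.style.longLine false
set_option linter.unusedSimpArgs false
set_option linter.unusedSectionVars false
set_option linter.unusedVariables false
set_option maxRecDepth 100000

open Cfsg.Lie Cfsg.Agent.H04.Chev
open Cfsg.Agent.H04.Chev.TE6

namespace Cfsg.Agent.H04.Tw.TE6

/-- the matching of the nodes of `F₄` -/
def tauW : Fin 4 → ℕ := ![0, 1, 3, 2]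

theorem ordT : ∀ a b : Fin 4, orderB chevE6 T (Js (tauW a) ++ Js (tauW b)) (CoxeterMatrix.F₄ a b) = true := by decide +kernel

variable {K : Type*} [Field K] [Fintype K] {q : ℕ}

theorem weyl (hq : IsPrimePow q) (hK : Fintype.card K = q ^ 2) :
    ∃ φ : ↥(chevE6.monomialSubgroup K ⊓ twistedE6 K q) →* (CoxeterMatrix.F₄).Group, Function.Surjective φ ∧
      φ.ker = (chevE6.diagonalSubgroup K ⊓ twistedE6 K q).subgroupOf (chevE6.monomialSubgroup K ⊓ twistedE6 K q) := by
  obtain ⟨f, hf⟩ := exists_frob hq (d := 1) hK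
  have hff : ∀ t, f (f t) = t := fun t => frob_order hK hf t
  exact weyl_T checks checks2 checks3 twT f jT (gsh hf hff) (GS_eq' hf hff) clT' jT2 (by decide) LJ CoxeterMatrix.F₄ tauW (by decide)
    (by decide) (by decide) ordT

end Cfsg.Agent.H04.Tw.TE6
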